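import Cfsg.Agent.H81.Quat

set_option autoImplicit false

namespace Cfsg.Agent.H81

/-- A noncommutative group embedded in a generalised quaternion 2-group is generalised quaternion. -/
theorem quat_of_embeds' {S : Type*} [Group S] (k n : ℕ) (hn : n = 2 ^ k) (φ : S →* QuaternionGroup n)
    (hφ : Function.Injective φ) (hnc : ∃ a b : S, a * b ≠ b * a) :
    ∃ j, 1 ≤ j ∧ Nonempty (S ≃* QuaternionGroup (2 ^ j)) := by
  classical
  have hn0 : NeZero n := ⟨by rw [hn]; positivity⟩
  have hnpos : 0 < n := Nat.pos_of_ne_zero hn0.1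
  have hfinS : Finite S := Finite.of_injective φ hφ
  let C : Subgroup S := (Subgroup.zpowers (QuaternionGroup.a (1 : ZMod (2 * n)))).comap φ
  have hza : ∀ i : ZMod (2 * n), QuaternionGroup.a i ∈ Subgroup.zpowers (QuaternionGroup.a (1 : ZMod (2 * n))) := by
    intro i
    rw [Subgroup.mem_zpowers_iff]
    have : NeZero (2 * n) := ⟨by omega⟩
    refine ⟨(i.val : ℤ), ?_⟩
    rw [zpow_natCast, QuaternionGroup.a_one_pow, ZMod.natCast_zmod_val]
  have hzxa : ∀ i : ZMod (2 * n), QuaternionGroup.xa i ∉ Subgroup.zpowers (QuaternionGroup.a (1 : ZMod (2 * n))) := by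
    intro i hi
    have : Finite (QuaternionGroup n) := Finite.of_fintype _
    rw [← mem_powers_iff_mem_zpowers, Submonoid.mem_powers_iff] at hi
    obtain ⟨j, hj⟩ := hi
    rw [QuaternionGroup.a_one_pow] at hj
    cases hj
  have hCa : ∀ s : S, s ∈ C → ∃ i, φ s = QuaternionGroup.a i := by
    intro s hs
    cases h : φ s with
    | a i => exact ⟨i, rfl⟩
    | xa i =>
      exfalso
      have : φ s ∈ Subgroup.zpowers (QuaternionGroup.a (1 : ZMod (2 * n))) := hs
      rw [h] at this
      exact hzxa i this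
  have hCxa : ∀ s : S, s ∉ C → ∃ i, φ s = QuaternionGroup.xa i := by
    intro s hs
    cases h : φ s with
    | a i =>
      exfalso
      apply hs
      change φ s ∈ Subgroup.zpowers (QuaternionGroup.a (1 : ZMod (2 * n)))
      rw [h]; exact hza i
    | xa i => exact ⟨i, rfl⟩
  have hCcyc : IsCyclic C := by
    let f : C →* Subgroup.zpowers (QuaternionGroup.a (1 : ZMod (2 * n))) :=
      (φ.comp C.subtype).codRestrict _ (fun c => c.2)
    apply isCyclic_of_injective f
    intro a b hab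
    have h1 : φ a.1 = φ b.1 := congrArg Subtype.val hab
    exact Subtype.ext (hφ h1)
  obtain ⟨w, hwC⟩ : ∃ w, w ∉ C := by
    by_contra hcon
    push Not at hcon
    obtain ⟨a, b, hab⟩ := hnc
    have : (⟨a, hcon a⟩ : C) * ⟨b, hcon b⟩ = ⟨b, hcon b⟩ * ⟨a, hcon a⟩ := by
      exact hCcyc.isMulCommutative.is_comm.comm _ _
    exact hab (congrArg Subtype.val this)
  obtain ⟨iw, hiw⟩ := hCxa w hwC
  obtain ⟨x, hx⟩ := IsCyclic.exists_generator (α := C)
  obtain ⟨ix, hix⟩ := hCa x.1 x.2
  have hw2 : φ (w * w) = QuaternionGroup.a (n : ZMod (2 * n)) := by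
    rw [map_mul, hiw, QuaternionGroup.xa_mul_xa]
    congr 1; ring
  have hwinv : w * x.1 * w⁻¹ = x.1⁻¹ := by
    rw [mul_inv_eq_iff_eq_mul, eq_inv_mul_iff_mul_eq]
    apply hφ
    rw [map_mul, map_mul, hiw, hix, QuaternionGroup.xa_mul_a, QuaternionGroup.a_mul_xa]
    congr 1; ring
  have htC : w * w ∈ C := by
    change φ (w * w) ∈ Subgroup.zpowers (QuaternionGroup.a (1 : ZMod (2 * n)))
    rw [hw2]; exact hza _
  have hn2 : (n : ZMod (2 * n)) ≠ 0 := by
    rw [Ne, ZMod.natCast_eq_zero_iff]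
    intro h
    have := Nat.le_of_dvd hnpos h
    omega
  have ht1 : w * w ≠ 1 := by
    intro h
    rw [h, map_one, QuaternionGroup.one_def] at hw2
    have h3 := QuaternionGroup.a.inj hw2
    exact hn2 h3.symm
  have ht2 : (w * w) ^ 2 = 1 := by
    apply hφ
    rw [map_pow, hw2, map_one, sq, QuaternionGroup.a_mul_a, QuaternionGroup.one_def]
    congr 1
    have : ((2 * n : ℕ) : ZMod (2 * n)) = 0 := ZMod.natCast_self _
    push_cast at this
    rw [← this]; ring
  have hto : orderOf (w * w) = 2 := orderOf_eq_prime ht2 ht1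
  -- `w * w` is a power of `x`
  obtain ⟨j, hj⟩ : ∃ j : ℕ, x.1 ^ j = w * w := by
    have h3 : (⟨w * w, htC⟩ : C) ∈ Subgroup.zpowers x := hx _
    rw [← mem_powers_iff_mem_zpowers, Submonoid.mem_powers_iff] at h3
    obtain ⟨j, hj⟩ := h3
    exact ⟨j, congrArg Subtype.val hj⟩
  have hdvd : 2 ∣ orderOf x.1 := by
    rw [← hto, ← hj]; exact orderOf_pow_dvd j
  obtain ⟨m, hm⟩ := hdvd
  have hm0 : 0 < m := by
    have := orderOf_pos x.1
    omega
  have hwm : w * w = x.1 ^ m := by
    have h3 : x.1 ^ (2 * j) = 1 := by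
      rw [mul_comm, pow_mul, hj]; exact ht2
    have h4 := orderOf_dvd_of_pow_eq_one h3
    rw [hm] at h4
    have h5 : m ∣ j := (Nat.mul_dvd_mul_iff_left (by norm_num)).1 h4
    obtain ⟨c, rfl⟩ := h5
    have h6 : (x.1 ^ m) ^ 2 = 1 := by
      rw [← pow_mul, mul_comm, ← hm]; exact pow_orderOf_eq_one _
    rw [← hj, pow_mul]
    rcases Nat.even_or_odd' c with ⟨d, rfl | rfl⟩
    · exfalso
      rw [pow_mul, pow_mul, h6, one_pow] at hj
      exact ht1 hj.symm
    · rw [pow_succ, pow_mul, h6, one_pow, one_mul]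
  have hcardC : Nat.card C = 2 * m := by
    rw [← hm, Subgroup.orderOf_coe, ← Nat.card_zpowers x]
    have : Subgroup.zpowers x = ⊤ := (Subgroup.eq_top_iff' _).2 hx
    rw [this, Subgroup.card_top]
  have hindex : C.index = 2 := by
    rw [Subgroup.index_eq_two_iff_exists_notMem_and]
    refine ⟨w, hwC, fun b => ?_⟩
    by_cases hb : b ∈ C
    · right; exact hb
    · left
      obtain ⟨ib, hib⟩ := hCxa b hb
      change φ (b * w) ∈ Subgroup.zpowers (QuaternionGroup.a (1 : ZMod (2 * n)))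
      rw [map_mul, hib, hiw, QuaternionGroup.xa_mul_xa]
      exact hza _
  have hcardS : Nat.card S = 4 * m := by
    have := C.card_mul_index
    rw [hcardC, hindex] at this
    omega
  -- m is a power of two
  have hmdvd : m ∣ 2 ^ k := by
    have h3 : Nat.card S ∣ Nat.card (QuaternionGroup n) := Subgroup.card_dvd_of_injective φ hφ
    rw [hcardS, Nat.card_eq_fintype_card, QuaternionGroup.card] at h3
    rw [hn] at h3
    exact (Nat.mul_dvd_mul_iff_left (by norm_num)).1 h3
  obtain ⟨l, -, hl⟩ := (Nat.dvd_prime_pow Nat.prime_two).1 hmdvd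
  have hl1 : 1 ≤ l := by
    rcases Nat.eq_zero_or_pos l with h0 | h0
    · exfalso
      rw [h0, pow_zero] at hl
      obtain ⟨a, b, hab⟩ := hnc
      apply hab
      have : Fact (Nat.Prime 2) := ⟨Nat.prime_two⟩
      exact (IsPGroup.isMulCommutative_of_card_eq_prime_sq (p := 2) (by rw [hcardS, hl]; norm_num)).is_comm.comm a b
    · exact h0
  refine ⟨l, hl1, ?_⟩
  rw [← hl]
  refine nonempty_quat_of_card m ?_ x.1 w hwm hwinv hm hcardS
  rw [hl]
  calc 2 = 2 ^ 1 := by norm_num
    _ ≤ 2 ^ l := Nat.pow_le_pow_right (by norm_num) hl1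

/-- A noncommutative group embedded in a generalised quaternion 2-group is generalised quaternion. -/
theorem quat_of_embeds {S : Type*} [Group S] (k : ℕ) (φ : S →* QuaternionGroup (2 ^ k))
    (hφ : Function.Injective φ) (hnc : ∃ a b : S, a * b ≠ b * a) :
    ∃ j, 1 ≤ j ∧ Nonempty (S ≃* QuaternionGroup (2 ^ j)) :=
  quat_of_embeds' k _ rfl φ hφ hnc

end Cfsg.Agent.H81
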